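import Cfsg.Agent.Lib.Helper65.Asch.Defs

set_option autoImplicit false

/-! # Piece X1 of helper65's farm: a frame for a cubic field subalgebra over the field with 4
elements -/

namespace Cfsg.Agent.Lib.Helper11.Asch

open Cfsg Cfsg.Geo Matrix Cfsg.Agent.Lib.Helper65.Asch
open scoped MatrixGroups

theorem exists_root64 {L : Type*} [Field L] [Fintype L]
    (h : Fintype.card L = 64) (h2 : (1 : L) + 1 = 0) : ∃ x : L, x ^ 3 + x + 1 = 0 := by
  classical
  have hc : Fintype.card Lˣ = 63 := by rw [Fintype.card_units, h]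
  have : Fact (Nat.Prime 7) := ⟨by norm_num⟩
  obtain ⟨y, hy⟩ := exists_prime_orderOf_dvd_card (G := Lˣ) 7 (by rw [hc]; norm_num)
  have hy7 : (y : L) ^ 7 = 1 := by
    have := pow_orderOf_eq_one y
    rw [hy] at this
    have h' := congrArg Units.val this
    simpa using h'
  have hy1 : (y : L) ≠ 1 := by
    intro h1
    have : y = 1 := Units.ext h1
    rw [this, orderOf_one] at hy
    norm_num at hy
  have key : ((y : L) - 1) * (((y:L)^3 + y + 1) * ((y:L)^3 + y^2 + 1)) = 0 := by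
    linear_combination hy7 + (y:L)^3 * ((y:L) - 1) * h2
  rcases mul_eq_zero.1 key with h1 | h1
  · exact absurd (sub_eq_zero.1 h1) hy1
  rcases mul_eq_zero.1 h1 with h1 | h1
  · exact ⟨_, h1⟩
  · refine ⟨((y⁻¹ : Lˣ) : L), ?_⟩
    have hxy : ((y⁻¹ : Lˣ) : L) * y = 1 := by simp
    generalize ((y⁻¹ : Lˣ) : L) = x at hxy ⊢
    generalize (y : L) = z at hxy h1
    have e1 : x ^ 3 * z ^ 3 = 1 := by rw [← mul_pow, hxy, one_pow]
    have e2 : x ^ 3 * z ^ 2 = x := by
      calc x ^ 3 * z ^ 2 = x * (x * z) ^ 2 := by ring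
        _ = x := by rw [hxy]; ring
    linear_combination x ^ 3 * h1 - e1 - e2

theorem root_cases {L : Type*} [Field L] (h2 : (1 : L) + 1 = 0) (x y : L)
    (hx : x ^ 3 + x + 1 = 0) (hy : y ^ 3 + y + 1 = 0) : y = x ∨ y = x ^ 2 ∨ y = x ^ 4 := by
  have hx3 : x ^ 3 = x + 1 := by linear_combination hx - (x + 1) * h2
  have hx4 : x ^ 4 = x ^ 2 + x := by linear_combination x * hx3
  have key : (y - x) * ((y - x ^ 2) * (y - x ^ 4)) = 0 := by
    rw [hx4]
    linear_combination hy + (-(x + x^2) * y^2 + (2 * x + x^2 + 1) * y - (x^2 + x + 1)) * h2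
      + (3 * y - 1) * hx3 + (y - (x + 1)) * hx4
  rcases mul_eq_zero.1 key with h1 | h1
  · exact Or.inl (sub_eq_zero.1 h1)
  rcases mul_eq_zero.1 h1 with h1 | h1
  · exact Or.inr (Or.inl (sub_eq_zero.1 h1))
  · exact Or.inr (Or.inr (sub_eq_zero.1 h1))

open Polynomial in
theorem indep_of_root {F R : Type*} [Field F] [Ring R] [Algebra F R] [Nontrivial R]
    (hroot : ∀ t : F, t ^ 3 + t + 1 ≠ 0) (x : R) (hx : x ^ 3 + x + 1 = 0) (a b c : F)
    (h : a • (1 : R) + b • x + c • x ^ 2 = 0) : a = 0 ∧ b = 0 ∧ c = 0 := by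
  set p : F[X] := X ^ 3 + X + 1 with hp
  have hmonic : p.Monic := by rw [hp]; monicity!
  have hdeg : p.natDegree = 3 := by rw [hp]; compute_degree!
  have hirr : Irreducible p := by
    rw [hmonic.irreducible_iff_roots_eq_zero_of_degree_le_three (by omega) (by omega)]
    rw [Multiset.eq_zero_iff_forall_notMem]
    intro t ht
    rw [mem_roots hmonic.ne_zero] at ht
    apply hroot t
    simpa [hp, IsRoot] using ht
  have hmin : p = minpoly F x :=
    minpoly.eq_of_irreducible_of_monic hirr (by simp [hp, hx]) hmonic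
  set q : F[X] := C a + C b * X + C c * X ^ 2 with hq
  have hq0 : aeval x q = 0 := by
    rw [← h]
    simp [hq, Algebra.smul_def]
  have hdvd : p ∣ q := hmin ▸ minpoly.dvd F x hq0
  have hq2 : q.natDegree ≤ 2 := by rw [hq]; compute_degree
  have hqz : q = 0 := Polynomial.eq_zero_of_dvd_of_natDegree_lt hdvd (by omega)
  have h0 : q.coeff 0 = 0 := by rw [hqz]; simp
  have h1 : q.coeff 1 = 0 := by rw [hqz]; simp
  have h2 : q.coeff 2 = 0 := by rw [hqz]; simp
  simp [hq, coeff_X, coeff_C] at h0 h1 h2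
  exact ⟨h0, h1, h2⟩


variable {F : Type*} [Field F]

theorem exists_gen [Fintype F] (hq : Fintype.card F = 4) (h2 : (1 : F) + 1 = 0)
    (K : Subalgebra F (Matrix (Fin 3) (Fin 3) F)) (hK : IsFieldSubalgebra 3 K) :
    ∃ x ∈ K, x ^ 3 + x + 1 = 0 ∧
      ∀ y ∈ K, y ^ 3 + y + 1 = 0 → y = x ∨ y = x ^ 2 ∨ y = x ^ 4 := by
  classical
  let _ : Fintype K := Fintype.ofFinite K
  have hcard : Fintype.card K = 64 := by
    rw [Module.card_eq_pow_finrank (K := F) (V := K), hq, hK.finrank_eq]; norm_num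
  have hf : IsField K :=
    { exists_pair_ne := exists_pair_ne K
      mul_comm := fun a b => Subtype.ext (hK.comm _ a.2 _ b.2)
      mul_inv_cancel := by
        intro a ha
        obtain ⟨y, hy, hay⟩ := hK.inv a.1 a.2 (fun h => ha (Subtype.ext h))
        exact ⟨⟨y, hy⟩, Subtype.ext hay⟩ }
  let _ : Field K := hf.toField
  have h2M : (1 : Matrix (Fin 3) (Fin 3) F) + 1 = 0 := by
    rw [← one_smul F (1 : Matrix (Fin 3) (Fin 3) F), ← add_smul, h2, zero_smul]
  have h2K : (1 : K) + 1 = 0 := Subtype.ext h2M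
  obtain ⟨x, hx⟩ := exists_root64 (L := K) hcard h2K
  refine ⟨x.1, x.2, congrArg Subtype.val hx, ?_⟩
  intro y hy hy0
  have hy' : (⟨y, hy⟩ : K) ^ 3 + ⟨y, hy⟩ + 1 = 0 := Subtype.ext hy0
  rcases root_cases h2K x ⟨y, hy⟩ hx hy' with h | h | h
  · exact Or.inl (congrArg Subtype.val h)
  · exact Or.inr (Or.inl (congrArg Subtype.val h))
  · exact Or.inr (Or.inr (congrArg Subtype.val h))

theorem conj_frame (x P0 Pi g C : Matrix (Fin 3) (Fin 3) F) (h1 : Pi * P0 = 1) (h2 : P0 * Pi = 1)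
    (hxP : x * P0 = P0 * C) (e : ℕ) (hg : g * x = x ^ e * g) :
    Pi * g * P0 * C = C ^ e * (Pi * g * P0) := by
  have hs : SemiconjBy P0 C x := hxP.symm
  have hse : P0 * C ^ e = x ^ e * P0 := hs.pow_right e
  calc Pi * g * P0 * C = Pi * g * (P0 * C) := by simp only [mul_assoc]
    _ = Pi * (g * x) * P0 := by rw [← hxP]; simp only [mul_assoc]
    _ = Pi * x ^ e * 1 * g * P0 := by rw [hg]; simp only [mul_assoc, one_mul]
    _ = Pi * (x ^ e * P0) * Pi * g * P0 := by rw [← h2]; simp only [mul_assoc]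
    _ = (Pi * P0) * C ^ e * Pi * g * P0 := by rw [← hse]; simp only [mul_assoc]
    _ = C ^ e * (Pi * g * P0) := by rw [h1]; simp only [mul_assoc, one_mul]

/-- X1 -/
theorem exists_frame3 [Fintype F] (hq : Fintype.card F = 4)
    (K : Subalgebra F (Matrix (Fin 3) (Fin 3) F)) (hK : IsFieldSubalgebra 3 K) :
    ∃ P : GL (Fin 3) F, ∀ g ∈ subalgebraNormalizer K,
      ((P⁻¹ * g * P : GL (Fin 3) F) : Matrix (Fin 3) (Fin 3) F) * C3 F =
          C3 F * ((P⁻¹ * g * P : GL (Fin 3) F) : Matrix (Fin 3) (Fin 3) F) ∨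
      ((P⁻¹ * g * P : GL (Fin 3) F) : Matrix (Fin 3) (Fin 3) F) * C3 F =
          C3 F ^ 2 * ((P⁻¹ * g * P : GL (Fin 3) F) : Matrix (Fin 3) (Fin 3) F) ∨
      ((P⁻¹ * g * P : GL (Fin 3) F) : Matrix (Fin 3) (Fin 3) F) * C3 F =
          C3 F ^ 4 * ((P⁻¹ * g * P : GL (Fin 3) F) : Matrix (Fin 3) (Fin 3) F) := by
  classical
  have hch : ringChar F = 2 := FiniteField.even_card_iff_char_two.2 (by rw [hq])
  have : CharP F 2 := ringChar.of_eq hch
  have h2' : (2 : F) = 0 := CharTwo.two_eq_zero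
  have h2 : (1 : F) + 1 = 0 := by rw [one_add_one_eq_two]; exact h2'
  have hroot : ∀ t : F, t ^ 3 + t + 1 ≠ 0 := by
    intro t ht
    have h4 : t ^ 4 = t := by
      have := FiniteField.pow_card t
      rwa [hq] at this
    have h0 : t ^ 2 = 0 := by linear_combination t * ht - h4 - t * h2'
    have ht0 : t = 0 := by simpa using h0
    rw [ht0] at ht
    simp at ht
  obtain ⟨x, hxK, hx, hroots⟩ := exists_gen hq h2 K hK
  have hdbl : ∀ m : Matrix (Fin 3) (Fin 3) F, m + m = 0 := by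
    intro m
    rw [← one_smul F m, ← add_smul, h2, zero_smul]
  have hx3 : x ^ 3 = 1 + x := by
    have h := hdbl (1 + x)
    have : x ^ 3 = x ^ 3 + x + 1 + (1 + x) - ((1 + x) + (1 + x)) := by abel
    rw [this, hx, h]
    abel
  set P0 : Matrix (Fin 3) (Fin 3) F := Matrix.of fun i j => (x ^ (j : ℕ)) i 0 with hP0
  have hdet : P0.det ≠ 0 := by
    intro hd
    obtain ⟨w, hw0, hw⟩ := Matrix.exists_mulVec_eq_zero_iff.2 hd
    set m := w 0 • (1 : Matrix (Fin 3) (Fin 3) F) + w 1 • x + w 2 • x ^ 2 with hm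
    have hmK : m ∈ K :=
      K.add_mem (K.add_mem (K.smul_mem K.one_mem _) (K.smul_mem hxK _))
        (K.smul_mem (K.pow_mem hxK 2) _)
    have hcol : ∀ i, m i 0 = 0 := by
      intro i
      have := congrFun hw i
      simp [Matrix.mulVec, dotProduct, Fin.sum_univ_three, hP0] at this
      simp only [hm, Matrix.add_apply, Matrix.smul_apply, smul_eq_mul]
      linear_combination this
    have hm0 : m = 0 := by
      by_contra hne
      obtain ⟨m', hm'K, hmm'⟩ := hK.inv m hmK hne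
      have h1 : m' * m = 1 := by rw [← hK.comm m hmK m' hm'K]; exact hmm'
      have := congrFun (congrFun h1 0) 0
      simp [Matrix.mul_apply, hcol] at this
    obtain ⟨a, b, c⟩ := indep_of_root hroot x hx _ _ _ hm0
    apply hw0
    ext i
    fin_cases i <;> simp [a, b, c]
  have hxP : x * P0 = P0 * C3 F := by
    ext i j
    have e : ∀ j : Fin 3, (x * P0) i j = (x ^ ((j : ℕ) + 1)) i 0 := by
      intro j
      rw [pow_succ', Matrix.mul_apply, Matrix.mul_apply]
      rfl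
    rw [e]
    fin_cases j <;> simp [Matrix.mul_apply, Fin.sum_univ_three, C3, hP0, hx3]
  refine ⟨Matrix.GeneralLinearGroup.mkOfDetNeZero P0 hdet, ?_⟩
  set P : GL (Fin 3) F := Matrix.GeneralLinearGroup.mkOfDetNeZero P0 hdet with hP
  have hPv : (P : Matrix (Fin 3) (Fin 3) F) = P0 := rfl
  have h1 : ((P⁻¹ : GL (Fin 3) F) : Matrix (Fin 3) (Fin 3) F) * P0 = 1 := by
    rw [← hPv, ← Units.val_mul, inv_mul_cancel, Units.val_one]
  have h1' : P0 * ((P⁻¹ : GL (Fin 3) F) : Matrix (Fin 3) (Fin 3) F) = 1 := by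
    rw [← hPv, ← Units.val_mul, mul_inv_cancel, Units.val_one]
  intro g hg
  have hyK : (g : Matrix (Fin 3) (Fin 3) F) * x * ((g⁻¹ : GL (Fin 3) F) : Matrix (Fin 3) (Fin 3) F) ∈ K :=
    (hg x).1 hxK
  have hy0 : ((g : Matrix (Fin 3) (Fin 3) F) * x *
      ((g⁻¹ : GL (Fin 3) F) : Matrix (Fin 3) (Fin 3) F)) ^ 3 + (g : Matrix (Fin 3) (Fin 3) F) * x *
      ((g⁻¹ : GL (Fin 3) F) : Matrix (Fin 3) (Fin 3) F) + 1 = 0 := by
    rw [Units.conj_pow]
    have e1 : (1 : Matrix (Fin 3) (Fin 3) F) = (g : Matrix (Fin 3) (Fin 3) F) * 1 *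
      ((g⁻¹ : GL (Fin 3) F) : Matrix (Fin 3) (Fin 3) F) := by
      rw [mul_one, ← Units.val_mul, mul_inv_cancel, Units.val_one]
    rw [e1, ← add_mul, ← add_mul, ← mul_add, ← mul_add, hx, mul_zero, zero_mul]
  have hconv : ∀ z : Matrix (Fin 3) (Fin 3) F, (g : Matrix (Fin 3) (Fin 3) F) * x *
      ((g⁻¹ : GL (Fin 3) F) : Matrix (Fin 3) (Fin 3) F) = z →
      (g : Matrix (Fin 3) (Fin 3) F) * x = z * g := by
    intro z hz
    rw [← hz, mul_assoc, ← Units.val_mul, inv_mul_cancel, Units.val_one, mul_one]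
  have hval : ((P⁻¹ * g * P : GL (Fin 3) F) : Matrix (Fin 3) (Fin 3) F) =
      ((P⁻¹ : GL (Fin 3) F) : Matrix (Fin 3) (Fin 3) F) * g * P0 := by
    rw [Units.val_mul, Units.val_mul, hPv]
  rw [hval]
  rcases hroots _ hyK hy0 with h | h | h
  · left
    have := conj_frame x P0 _ g (C3 F) h1 h1' hxP 1 (by rw [pow_one]; exact hconv _ h)
    rwa [pow_one] at this
  · right; left
    exact conj_frame x P0 _ g (C3 F) h1 h1' hxP 2 (hconv _ h)
  · right; right
    exact conj_frame x P0 _ g (C3 F) h1 h1' hxP 4 (hconv _ h)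

end Cfsg.Agent.Lib.Helper11.Asch
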