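import Cfsg.Agent.Lib.Helper65.Asch.Defs

set_option autoImplicit false

/-! # Pieces X2, X3 of helper65's farm: the normaliser of the cubic field in `SL₃(4)` lies in the
subfield group -/

namespace Cfsg.Agent.Lib.Helper11.Asch

open Cfsg Cfsg.Geo Matrix Cfsg.Agent.Lib.Helper65.Asch
open scoped MatrixGroups

variable {F : Type*} [Field F]

theorem two_eq_zero_of_card [Fintype F] (hq : Fintype.card F = 4) : (2 : F) = 0 := by
  have hch : ringChar F = 2 := FiniteField.even_card_iff_char_two.2 (by rw [hq])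
  have : CharP F 2 := ringChar.of_eq hch
  exact CharTwo.two_eq_zero

theorem norm_one_cases [Fintype F] (hq : Fintype.card F = 4) (a b c : F)
    (hN : a^3+b^3+c^3+2*a^2*c+a*c^2-a*b^2-3*a*b*c-b*c^2 = 1) :
    ∃ l : F, l ≠ 0 ∧ (l*a = 0 ∨ l*a = 1) ∧ (l*b = 0 ∨ l*b = 1) ∧ (l*c = 0 ∨ l*c = 1) := by
  have h2 : (2 : F) = 0 := two_eq_zero_of_card hq
  have cube : ∀ t : F, t ≠ 0 → t^3 = 1 := by
    intro t ht
    have := FiniteField.pow_card_sub_one_eq_one t ht
    rwa [hq] at this
  have quad : ∀ b c : F, b ≠ 0 → c ≠ 0 → b ≠ c → b^2+b*c+c^2 = 0 := by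
    intro b c hb hc hbc
    have : (b - c) * (b^2+b*c+c^2) = 0 := by linear_combination cube b hb - cube c hc
    rcases mul_eq_zero.1 this with h | h
    · exact absurd (sub_eq_zero.1 h) hbc
    · exact h
  have eqof : ∀ u v : F, v ≠ 0 → u * v^2 = 1 → u = v := by
    intro u v hv h
    have : (u - v) * v^2 = 0 := by linear_combination h - cube v hv
    rcases mul_eq_zero.1 this with h | h
    · exact sub_eq_zero.1 h
    · exact absurd (pow_eq_zero_iff (by norm_num) |>.1 h) hv
  by_cases ha : a = 0 <;> by_cases hb : b = 0 <;> by_cases hc : c = 0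
  · subst ha hb hc
    simp at hN
  · exact ⟨c⁻¹, inv_ne_zero hc, by simp [ha], by simp [hb], Or.inr (inv_mul_cancel₀ hc)⟩
  · exact ⟨b⁻¹, inv_ne_zero hb, by simp [ha], Or.inr (inv_mul_cancel₀ hb), by simp [hc]⟩
  · have hbc : b = c := eqof b c hc (by
      subst ha
      linear_combination -hN + cube b hb + cube c hc)
    subst hbc
    exact ⟨b⁻¹, inv_ne_zero hb, by simp [ha], Or.inr (inv_mul_cancel₀ hb),
      Or.inr (inv_mul_cancel₀ hb)⟩
  · exact ⟨a⁻¹, inv_ne_zero ha, Or.inr (inv_mul_cancel₀ ha), by simp [hb], by simp [hc]⟩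
  · have hac : a = c := eqof a c hc (by
      subst hb
      linear_combination hN - cube a ha - cube c hc - (a^2*c+1)*h2)
    subst hac
    exact ⟨a⁻¹, inv_ne_zero ha, Or.inr (inv_mul_cancel₀ ha), by simp [hb],
      Or.inr (inv_mul_cancel₀ ha)⟩
  · have hab : a = b := eqof a b hb (by
      subst hc
      linear_combination -hN + cube a ha + cube b hb)
    subst hab
    exact ⟨a⁻¹, inv_ne_zero ha, Or.inr (inv_mul_cancel₀ ha), Or.inr (inv_mul_cancel₀ ha),
      by simp [hc]⟩
  · by_cases hbc : b = c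
    · subst hbc
      have hab : a = b := eqof a b hb (by
        linear_combination -hN + cube a ha + cube b hb + (a^2*b - a*b^2)*h2)
      subst hab
      exact ⟨a⁻¹, inv_ne_zero ha, Or.inr (inv_mul_cancel₀ ha), Or.inr (inv_mul_cancel₀ ha),
        Or.inr (inv_mul_cancel₀ ha)⟩
    · exfalso
      have Q := quad b c hb hc hbc
      have : b*c^2 = 0 := by
        linear_combination -hN + cube a ha + cube b hb + cube c hc + a*Q
          + (1 + a^2*c - a*b^2 - 2*a*b*c)*h2
      rcases mul_eq_zero.1 this with h | h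
      · exact hb h
      · exact hc (pow_eq_zero_iff (by norm_num) |>.1 h)

theorem comm_form (z : Matrix (Fin 3) (Fin 3) F) (h : z * C3 F = C3 F * z) :
    z = !![z 0 0, z 2 0, z 1 0; z 1 0, z 0 0 + z 2 0, z 1 0 + z 2 0;
      z 2 0, z 1 0, z 0 0 + z 2 0] := by
  have hij := fun i j => congrFun (congrFun h i) j
  have h00 := hij 0 0
  have h10 := hij 1 0
  have h20 := hij 2 0
  have h01 := hij 0 1
  have h11 := hij 1 1
  have h21 := hij 2 1
  simp [Matrix.mul_apply, Fin.sum_univ_three, C3] at h00 h10 h20 h01 h11 h21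
  ext i j
  fin_cases i <;> fin_cases j <;> simp [*, add_comm]

theorem mem_range_map_of_entries (F₀ : Subfield F) (g : GL (Fin 3) F)
    (h : ∀ i j, (g : Matrix (Fin 3) (Fin 3) F) i j ∈ F₀) :
    g ∈ (Matrix.GeneralLinearGroup.map (F₀.subtype : F₀ →+* F)).range := by
  set M0 : Matrix (Fin 3) (Fin 3) F₀ := fun i j => ⟨(g : Matrix (Fin 3) (Fin 3) F) i j, h i j⟩
    with hM0
  have hmap : (F₀.subtype : F₀ →+* F).mapMatrix M0 = (g : Matrix (Fin 3) (Fin 3) F) := by
    ext i j
    rfl
  have hdet : M0.det ≠ 0 := by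
    intro h0
    have h1 : (g : Matrix (Fin 3) (Fin 3) F).det = 0 := by
      rw [← hmap, ← RingHom.map_det, h0, map_zero]
    exact ((Matrix.isUnit_iff_isUnit_det _).1 g.isUnit).ne_zero h1
  exact ⟨Matrix.GeneralLinearGroup.mkOfDetNeZero M0 hdet, Units.ext hmap⟩

/-- X2 -/
theorem mem_S3_of_comm [Fintype F] (hq : Fintype.card F = 4) (g : GL (Fin 3) F)
    (hdet : g ∈ specialLinear (Fin 3) F)
    (h : (g : Matrix (Fin 3) (Fin 3) F) * C3 F = C3 F * (g : Matrix (Fin 3) (Fin 3) F)) :
    g ∈ S3 F := by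
  have hform := comm_form _ h
  have hd : (g : Matrix (Fin 3) (Fin 3) F).det = 1 := by
    have := MonoidHom.mem_ker.1 hdet
    have h' := congrArg Units.val this
    simpa using h'
  generalize hz : (g : Matrix (Fin 3) (Fin 3) F) = z at hform hd
  obtain ⟨l, hl, hla, hlb, hlc⟩ := norm_one_cases hq (z 0 0) (z 1 0) (z 2 0) (by
    rw [← hd]
    conv_rhs => rw [hform]
    rw [Matrix.det_fin_three]
    simp
    ring)
  have mem01 : ∀ t : F, (t = 0 ∨ t = 1) → t ∈ (⊥ : Subfield F) := by
    rintro t (rfl | rfl)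
    · exact zero_mem _
    · exact one_mem _
  have hA := mem01 _ hla
  have hB := mem01 _ hlb
  have hC := mem01 _ hlc
  set s : GL (Fin 3) F :=
    Units.map (Matrix.scalar (Fin 3) : F →+* Matrix (Fin 3) (Fin 3) F).toMonoidHom (Units.mk0 l hl)
    with hs
  have hsmem : s ∈ scalars (Fin 3) F := ⟨_, rfl⟩
  have hsg : ∀ i j, ((s * g : GL (Fin 3) F) : Matrix (Fin 3) (Fin 3) F) i j = l * z i j := by
    intro i j
    rw [Units.val_mul, hz]
    simp [hs]
  have hrange : s * g ∈ (Matrix.GeneralLinearGroup.map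
      ((⊥ : Subfield F).subtype : (⊥ : Subfield F) →+* F)).range := by
    apply mem_range_map_of_entries
    intro i j
    rw [hsg, hform]
    fin_cases i <;> fin_cases j <;> simp [mul_add] <;>
      first | assumption | exact add_mem ‹_› ‹_›
  have : g = s⁻¹ * (s * g) := by group
  rw [this]
  exact Subgroup.mul_mem _ (Subgroup.mem_sup_right (inv_mem hsmem)) (Subgroup.mem_sup_left hrange)

end Cfsg.Agent.Lib.Helper11.Asch
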