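import Cfsg.Agent.Lib.Helper11.Asch.X2

set_option autoImplicit false

/-! # Piece X3 of helper65's farm -/

namespace Cfsg.Agent.Lib.Helper11.Asch

open Cfsg Cfsg.Geo Matrix Cfsg.Agent.Lib.Helper65.Asch
open scoped MatrixGroups

variable {F : Type*} [Field F]

theorem mem_S3_of_semiconj [Fintype F] (hq : Fintype.card F = 4) (g k : GL (Fin 3) F)
    (D : Matrix (Fin 3) (Fin 3) F)
    (hdet : g ∈ specialLinear (Fin 3) F) (hkdet : k ∈ specialLinear (Fin 3) F) (hk : k ∈ S3 F)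
    (hkC : (k : Matrix (Fin 3) (Fin 3) F) * C3 F = D * (k : Matrix (Fin 3) (Fin 3) F))
    (h : (g : Matrix (Fin 3) (Fin 3) F) * C3 F = D * (g : Matrix (Fin 3) (Fin 3) F)) :
    g ∈ S3 F := by
  have h1 : ((k⁻¹ : GL (Fin 3) F) : Matrix (Fin 3) (Fin 3) F) * k = 1 := by
    rw [← Units.val_mul, inv_mul_cancel, Units.val_one]
  have h2 : (k : Matrix (Fin 3) (Fin 3) F) * ((k⁻¹ : GL (Fin 3) F) : Matrix (Fin 3) (Fin 3) F) = 1 := by
    rw [← Units.val_mul, mul_inv_cancel, Units.val_one]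
  have hkD : ((k⁻¹ : GL (Fin 3) F) : Matrix (Fin 3) (Fin 3) F) * D =
      C3 F * ((k⁻¹ : GL (Fin 3) F) : Matrix (Fin 3) (Fin 3) F) := by
    calc ((k⁻¹ : GL (Fin 3) F) : Matrix (Fin 3) (Fin 3) F) * D
        = ((k⁻¹ : GL (Fin 3) F) : Matrix (Fin 3) (Fin 3) F) * (D * (k : Matrix (Fin 3) (Fin 3) F)) *
          ((k⁻¹ : GL (Fin 3) F) : Matrix (Fin 3) (Fin 3) F) := by
          rw [mul_assoc, mul_assoc, h2, mul_one]
      _ = C3 F * ((k⁻¹ : GL (Fin 3) F) : Matrix (Fin 3) (Fin 3) F) := by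
          rw [← hkC, ← mul_assoc, h1, one_mul]
  have hmem : k⁻¹ * g ∈ S3 F := by
    apply mem_S3_of_comm hq _ (Subgroup.mul_mem _ (inv_mem hkdet) hdet)
    rw [Units.val_mul, mul_assoc, h, ← mul_assoc, hkD, mul_assoc]
  have : g = k * (k⁻¹ * g) := by group
  rw [this]
  exact Subgroup.mul_mem _ hk hmem

/-- X3 -/
theorem mem_S3_of_conj [Fintype F] (hq : Fintype.card F = 4) (g : GL (Fin 3) F)
    (hdet : g ∈ specialLinear (Fin 3) F)
    (h : (g : Matrix (Fin 3) (Fin 3) F) * C3 F = C3 F * (g : Matrix (Fin 3) (Fin 3) F) ∨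
      (g : Matrix (Fin 3) (Fin 3) F) * C3 F = C3 F ^ 2 * (g : Matrix (Fin 3) (Fin 3) F) ∨
      (g : Matrix (Fin 3) (Fin 3) F) * C3 F = C3 F ^ 4 * (g : Matrix (Fin 3) (Fin 3) F)) :
    g ∈ S3 F := by
  have h2 : (2 : F) = 0 := two_eq_zero_of_card hq
  have h11 : (1 : F) + 1 = 0 := by rw [one_add_one_eq_two]; exact h2
  have hneg : (-1 : F) = 1 := by linear_combination -h2
  set h0 : Matrix (Fin 3) (Fin 3) F := !![1, 0, 0; 0, 0, 1; 0, 1, 1] with hh0
  have hd0 : h0.det = 1 := by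
    rw [hh0, Matrix.det_fin_three]
    simp [hneg]
  set k : GL (Fin 3) F := Matrix.GeneralLinearGroup.mkOfDetNeZero h0 (by rw [hd0]; exact one_ne_zero)
    with hk
  have hkv : (k : Matrix (Fin 3) (Fin 3) F) = h0 := rfl
  have hkdet : k ∈ specialLinear (Fin 3) F := by
    apply MonoidHom.mem_ker.2
    apply Units.ext
    simpa [hkv] using hd0
  have hkS : k ∈ S3 F := by
    apply Subgroup.mem_sup_left
    apply mem_range_map_of_entries
    intro i j
    rw [hkv, hh0]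
    fin_cases i <;> fin_cases j <;> simp
  have hkC : (k : Matrix (Fin 3) (Fin 3) F) * C3 F = C3 F ^ 2 * (k : Matrix (Fin 3) (Fin 3) F) := by
    rw [hkv, hh0, pow_two]
    ext i j
    fin_cases i <;> fin_cases j <;> simp [Matrix.mul_apply, Fin.sum_univ_three, C3, h11]
  rcases h with h | h | h
  · exact mem_S3_of_comm hq g hdet h
  · exact mem_S3_of_semiconj hq g k _ hdet hkdet hkS hkC h
  · refine mem_S3_of_semiconj hq g (k * k) _ hdet (Subgroup.mul_mem _ hkdet hkdet)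
      (Subgroup.mul_mem _ hkS hkS) ?_ h
    have hs : SemiconjBy (k : Matrix (Fin 3) (Fin 3) F) (C3 F) (C3 F ^ 2) := hkC
    have hs2 : SemiconjBy (k : Matrix (Fin 3) (Fin 3) F) (C3 F ^ 2) ((C3 F ^ 2) ^ 2) :=
      hs.pow_right 2
    have hs3 := hs2.mul_left hs
    rw [Units.val_mul]
    have e : (C3 F ^ 2) ^ 2 = C3 F ^ 4 := by rw [← pow_mul]
    rw [e] at hs3
    exact hs3

end Cfsg.Agent.Lib.Helper11.Asch
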